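import Cfsg.Agent.Suzuki.HeSp44.Main
import Cfsg.Prelude.Def_Sporadic

/-!
The two forms of the stabiliser statement
-/

set_option autoImplicit false
set_option maxRecDepth 100000

namespace Cfsg.Agent.Suzuki.HeSp44

open Cfsg.Agent.Screen.CosetEnum Cfsg.Agent.FGS2.He

local notation "Q" => Cfsg.Spor.He

theorem map_closure_eq : (Subgroup.closure ({Cfsg.Spor.He.a, Cfsg.Spor.He.c, Cfsg.Spor.He.d, Cfsg.Spor.He.e,
      Cfsg.Spor.He.f, (Cfsg.Spor.He.a * Cfsg.Spor.He.b) ^ 2,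
      (Cfsg.Spor.He.b * Cfsg.Spor.He.c * Cfsg.Spor.He.d * Cfsg.Spor.He.e) ^ 7} : Set (FreeGroup Cfsg.Spor.He.Gen))).map
      (PresentedGroup.mk (Cfsg.Spor.coxRelators Cfsg.Spor.He.edges ∪ {r | r ∈ Cfsg.Spor.He.extra})) = stab0 := by
  rw [MonoidHom.map_closure, stab0]
  refine congrArg Subgroup.closure (Set.ext fun g => ?_)
  simp only [Set.image_insert_eq, Set.image_singleton, Set.mem_insert_iff, Set.mem_singleton_iff, map_pow,
    map_mul, Set.mem_setOf_eq]
  have w0 : evalW PresHe.gens [0] = PresentedGroup.of Cfsg.Spor.He.Gen.a := one_mul _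
  have w2 : evalW PresHe.gens [2] = PresentedGroup.of Cfsg.Spor.He.Gen.c := one_mul _
  have w3 : evalW PresHe.gens [3] = PresentedGroup.of Cfsg.Spor.He.Gen.d := one_mul _
  have w4 : evalW PresHe.gens [4] = PresentedGroup.of Cfsg.Spor.He.Gen.e := one_mul _
  have w5 : evalW PresHe.gens [5] = PresentedGroup.of Cfsg.Spor.He.Gen.f := one_mul _
  have w6 : evalW PresHe.gens [1, 0, 1, 0] =
      (PresentedGroup.of Cfsg.Spor.He.Gen.a * PresentedGroup.of Cfsg.Spor.He.Gen.b : Q) ^ 2 := by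
    rw [show ([1, 0, 1, 0] : List ℕ) = pw 2 [1, 0] from rfl, evalW_pw]
    simp [evalW, PresHe.gens]
  have w7 : evalW PresHe.gens [4, 3, 2, 1, 4, 3, 2, 1, 4, 3, 2, 1, 4, 3, 2, 1, 4, 3, 2, 1, 4, 3, 2, 1, 4, 3, 2, 1] =
      (PresentedGroup.of Cfsg.Spor.He.Gen.b * PresentedGroup.of Cfsg.Spor.He.Gen.c *
        PresentedGroup.of Cfsg.Spor.He.Gen.d * PresentedGroup.of Cfsg.Spor.He.Gen.e : Q) ^ 7 := by
    rw [show ([4, 3, 2, 1, 4, 3, 2, 1, 4, 3, 2, 1, 4, 3, 2, 1, 4, 3, 2, 1, 4, 3, 2, 1, 4, 3, 2, 1] : List ℕ) =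
      pw 7 [4, 3, 2, 1] from rfl, evalW_pw]
    simp [evalW, PresHe.gens, mul_assoc]
  constructor
  · rintro (rfl | rfl | rfl | rfl | rfl | rfl | rfl)
    · exact ⟨[0], by decide +kernel, w0.symm⟩
    · exact ⟨[2], by decide +kernel, w2.symm⟩
    · exact ⟨[3], by decide +kernel, w3.symm⟩
    · exact ⟨[4], by decide +kernel, w4.symm⟩
    · exact ⟨[5], by decide +kernel, w5.symm⟩
    · exact ⟨_, by decide +kernel, w6.symm⟩
    · exact ⟨_, by decide +kernel, w7.symm⟩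
  · rintro ⟨w, hw, rfl⟩
    simp only [HeS44.tbl, List.mem_cons, List.not_mem_nil, or_false] at hw
    rcases hw with rfl | rfl | rfl | rfl | rfl | rfl | rfl
    · exact Or.inl w0
    · exact Or.inr (Or.inl w2)
    · exact Or.inr (Or.inr (Or.inl w3))
    · exact Or.inr (Or.inr (Or.inr (Or.inl w4)))
    · exact Or.inr (Or.inr (Or.inr (Or.inr (Or.inl w5))))
    · exact Or.inr (Or.inr (Or.inr (Or.inr (Or.inr (Or.inl w6)))))
    · exact Or.inr (Or.inr (Or.inr (Or.inr (Or.inr (Or.inr w7)))))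

theorem presented_form (hcard : Nat.card Q = 4030387200) {S : Subgroup Q} (hS : S = stab0) :
    ∃ (N : Subgroup S) (K : Type) (_ : Field K) (_ : Fintype K),
      N.Normal ∧ N.index = 2 ∧ Fintype.card K = 4 ∧ Nonempty (N ≃* Matrix.symplecticGroup (Fin 2) K) := by
  subst hS
  obtain ⟨N, h1, h2, h3⟩ := exists_sp_normal hcard
  exact ⟨N, F4, F4.instFieldF4, inferInstance, h1, h2, F4.card_eq, h3⟩

theorem rep_injective (hcard : Nat.card Q = 4030387200) : Function.Injective rep :=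
  fun g h e => base_inj hcard g h fun c _ => by rw [e]

theorem permutation_form (hs : IsSimpleGroup Q) (hcard : Nat.card Q = 4030387200) :
    ∃ H : Subgroup (Equiv.Perm (Fin 2058)), Cfsg.IsHe H ∧ MulAction.IsPretransitive H (Fin 2058) ∧
      ∃ (F : Type) (_ : Field F) (_ : Fintype F), Fintype.card F = 4 ∧
        ∃ N : Subgroup (MulAction.stabilizer H (0 : Fin 2058)),
          N.index = 2 ∧ Nonempty (N ≃* Matrix.symplecticGroup (Fin 2) F) := by
  haveI := hs
  let H : Subgroup (Equiv.Perm (Fin 2058)) := rep.range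
  let e : Q ≃* H := MonoidHom.ofInjective (rep_injective hcard)
  haveI : Nontrivial H := e.toEquiv.symm.nontrivial
  have hsimple : IsSimpleGroup H := IsSimpleGroup.isSimpleGroup_of_surjective e.toMonoidHom e.surjective
  refine ⟨H, ⟨hsimple, (Nat.card_congr e.toEquiv).symm.trans hcard⟩, ⟨fun x y => ?_⟩, F4, F4.instFieldF4,
    inferInstance, F4.card_eq, ?_⟩
  · obtain ⟨g, hg⟩ := rep_transitive x y
    exact ⟨e g, hg⟩
  obtain ⟨N, -, h2, ⟨f⟩⟩ := exists_sp_normal hcard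
  have hS : stab0.map e.toMonoidHom = MulAction.stabilizer H (0 : Fin 2058) := by
    ext x
    obtain ⟨g, rfl⟩ := e.surjective x
    rw [Subgroup.mem_map_equiv, MulEquiv.symm_apply_apply, mem_stab0_iff, MulAction.mem_stabilizer_iff]
    rfl
  let φ : stab0 ≃* MulAction.stabilizer H (0 : Fin 2058) := (e.subgroupMap stab0).trans (MulEquiv.subgroupCongr hS)
  refine ⟨N.map φ.toMonoidHom, ?_, ⟨(N.equivMapOfInjective φ.toMonoidHom φ.injective).symm.trans f⟩⟩
  exact (Subgroup.index_map_equiv N φ).trans h2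

end Cfsg.Agent.Suzuki.HeSp44
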